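import Mathlib
import Cfsg.Agent.Lib.St.Chev
import Cfsg.Agent.Lib.ClSys.Eps

/-!
# The relations (R3) and simple connectedness for the Chevalley groups
-/

set_option autoImplicit false

namespace CfsgLib.CR

open CfsgLib.RGD CfsgLib.Chev CfsgLib.Weyl Cfsg Cfsg.Lie

variable {D : ChevalleyDatum} [hD : Good D] (h : RtOK D) (F : Type*) [Field F]

theorem chevSys_r3 : Stein.R3 (St.chevSys h F) := fun r _ _ hc hd =>
  Subtype.ext (hU_mul r.2 hc hd).symm

/-- if the diagonal subgroup has order `(q - 1) ^ l` then the system is simply connected -/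
theorem chevSys_sc [Fintype F]
    (hc : Nat.card (D.diagonalSubgroup F) = (Fintype.card F - 1) ^ D.rank) :
    ClSys.SC (St.chevSys h F) := by
  classical
  have hinj : Function.Injective (torHom D F) := by
    have h1 : Function.Bijective (torHom D F).rangeRestrict := by
      refine (Nat.bijective_iff_surjective_and_card _).2 ⟨MonoidHom.rangeRestrict_surjective _, ?_⟩
      rw [torHom_range, hc, Nat.card_pi, Finset.prod_const, Finset.card_univ, Fintype.card_fin,
        Nat.card_units, Nat.card_eq_fintype_card]
    exact fun a b e => h1.1 (Subtype.ext e)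
  intro L t hL h1 i hi
  have key : ∀ L : List (Fin D.rank), ((Stein.hprod (St.chevSys h F) L t : D.group F) : GL D.Idx F)
      = torHom D F (L.map fun i => Pi.mulSingle i (t i)).prod := by
    intro L
    induction L with
    | nil => simp [Stein.hprod_nil]
    | cons j L ih =>
      rw [Stein.hprod_cons, List.map_cons, List.prod_cons, map_mul, ← ih, torHom_mulSingle]
      rfl
  have h2 := hinj ((key L).symm.trans ((congrArg Subtype.val h1).trans (map_one _).symm))
  rw [← List.prod_toFinset _ hL] at h2
  have h3 := congrFun h2 i
  rw [Finset.prod_apply, Finset.prod_eq_single i, Pi.mulSingle_eq_same] at h3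
  · exact h3
  · intro j _ hj
    exact Pi.mulSingle_eq_of_ne' hj _
  · intro hi'
    exact absurd (List.mem_toFinset.2 hi) hi'

end CfsgLib.CR
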