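import Mathlib
import Cfsg.Agent.Lib.CR.Irr
import Cfsg.Agent.Lib.ClSys.StApp

/-!
# Curtis–Richen theory, part 4: every weight occurs; the number of semisimple classes

`exists_isWt_of_ker` : every weight whose character is trivial on the kernel of `t ↦ ∏ h_i(t_i)` is the weight
of a non-zero vector. `card_regular_classes` : in the simply connected case the number of
`p`-regular classes is `q ^ l`.
-/

set_option autoImplicit false

namespace CfsgLib.CR

open CfsgLib.RGD CfsgLib.ModRep MonoidAlgebra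

variable {ι κ : Type} [Fintype κ] [DecidableEq κ] {Φ : RootSys ι κ} {F : Type*} [Field F]
  {G : Type*} [Group G] {S : StSys Φ F G}

theorem exists_x_mul_eq {g : G} {w : Equiv.Perm ι} (hw : w ∈ Φ.W) (ha : S.Acts g w) {r : ι}
    (hp : Φ.Pos (w⁻¹ r)) (t : F) : ∃ u ∈ S.U, S.x r t * g = g * u :=
  ⟨g⁻¹ * S.x r t * g⁻¹⁻¹, (ha.inv hw).conj_x_mem (Ψ := {r | Φ.Pos r}) hp t, by group⟩

section
variable {J : Set κ} {K : Subgroup G} (hK : K ≤ S.H)
  (hJ : ∀ j ∈ J, ∀ c, c ≠ 0 → S.h (Φ.simple j) c ∈ K)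
include hK hJ

theorem n_conj_mem {j : κ} (hj : j ∈ J) {a : G} (ha : a ∈ K) :
    S.n (Φ.simple j) 1 * a * (S.n (Φ.simple j) 1)⁻¹ ∈ K := by
  obtain ⟨l, hl, e⟩ := Stein.exists_n_conj S (Φ.simple j) (hK ha)
  rw [e]
  exact mul_mem ha (hJ j hj l hl)

omit hK in
theorem n_sq_mem {j : κ} (hj : j ∈ J) : S.n (Φ.simple j) 1 * S.n (Φ.simple j) 1 ∈ K := by
  have := hJ j hj (-1) (by simp)
  rwa [S.h_neg_one, inv_mem_iff] at this

theorem nprod_conj_mem {L : List κ} (hL : ∀ i ∈ L, i ∈ J) {a : G} (ha : a ∈ K) :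
    S.nprod L * a * (S.nprod L)⁻¹ ∈ K := by
  induction L with
  | nil => simpa [S.nprod_nil] using ha
  | cons j L ih =>
    have := n_conj_mem hK hJ (hL j (by simp)) (ih fun i hi => hL i (by simp [hi]))
    rw [S.nprod_cons]
    convert this using 1
    group

theorem nprod_mem {L : List κ} (hL' : ∀ i ∈ L, i ∈ J) (hL : Φ.wprod L = 1) : S.nprod L ∈ K := by
  induction hn : L.length using Nat.strong_induction_on generalizing L with
  | _ n ih =>
    rcases List.eq_nil_or_concat L with rfl | ⟨L₀, i, rfl⟩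
    · exact one_mem _
    · rw [List.concat_eq_append] at hL hn hL' ⊢
      rw [Φ.wprod_append, Φ.wprod_singleton] at hL
      have h0 : Φ.wprod L₀ = Φ.s i := by rw [← Φ.s_inv]; exact eq_inv_of_mul_eq_one_left hL
      obtain ⟨L₁, j, L₂, rfl, h2, h3⟩ := Φ.exchange' L₀ i
        (by rw [h0, Φ.s_simple]; exact Φ.neg_neg_simple i)
      rw [hL] at h3
      have hj : j ∈ J := hL' j (by simp)
      have h4 := ih (L₁ ++ L₂).length (by rw [← hn]; simp) (fun a ha => hL' a (by
        simp only [List.mem_append, List.mem_cons] at ha ⊢; tauto)) h3.symm rfl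
      obtain ⟨l, hl, h5⟩ := (S.acts_nprod L₂).exists_conj_n (Φ.wprod_mem_W L₂) (Φ.simple i)
      have h6 := h5 1
      rw [h2, mul_one, S.n_eq (Φ.simple j)] at h6
      have h7 := mul_mem (n_conj_mem hK hJ hj (hJ j hj l hl)) (n_sq_mem hJ hj)
      have : S.nprod (L₁ ++ j :: L₂ ++ [i]) = S.nprod L₁ * (S.n (Φ.simple j) 1 *
          (S.h (Φ.simple j) l * S.n (Φ.simple j) 1)) * (S.nprod L₁)⁻¹ * S.nprod (L₁ ++ L₂) := by
        rw [← h6, S.nprod_append, S.nprod_append, S.nprod_append, S.nprod_cons, S.nprod_singleton]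
        group
      rw [this]
      refine mul_mem (nprod_conj_mem hK hJ (fun a ha => hL' a (by simp [ha])) ?_) h4
      convert h7 using 1
      group

/-- the elements of `H` in the group generated by `U` and the root subgroups of `Φ_J` -/
theorem mem_of_mem_H [Finite ι] (hS : S.Nondeg) {a : G} (ha : a ∈ S.H)
    (hQ : a ∈ S.UU {r | Φ.Pos r ∨ Φ.InSub J r}) : a ∈ K := by
  let Z : G → Prop := fun z => ∃ u ∈ S.U, ∃ a ∈ K, ∃ L : List κ, (∀ i ∈ L, i ∈ J) ∧
    ∃ u' ∈ S.U, z = u * (a * S.nprod L) * u'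
  have hU : ∀ g ∈ S.U, ∀ z, Z z → Z (g * z) := by
    rintro g hg _ ⟨u, hu, a, ha, L, hL, u', hu', rfl⟩
    exact ⟨g * u, mul_mem hg hu, a, ha, L, hL, u', hu', by group⟩
  have hH : ∀ g ∈ K, ∀ z, Z z → Z (g * z) := by
    rintro g hg _ ⟨u, hu, a, ha, L, hL, u', hu', rfl⟩
    exact ⟨g * u * g⁻¹, S.H_conj_mem_UU (hK hg) hu, g * a, mul_mem hg ha, L, hL, u', hu', by group⟩
  have hN : ∀ j ∈ J, ∀ z, Z z → Z (S.n (Φ.simple j) 1 * z) := by
    rintro j hj _ ⟨u, hu, a, ha, L, hL, u', hu', rfl⟩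
    obtain ⟨y, hy, t, rfl⟩ := S.exists_mul_x Φ.closed_pos (fun _ h => h) (Φ.simple j) hu
    have hy' := S.UU_mono Set.sdiff_subset (S.n_conj_mem_U_diff j one_ne_zero hy)
    have hw := Φ.wprod_mem_W L
    have hA : S.Acts (a * S.nprod L) (Φ.wprod L) := by
      simpa using (S.acts_of_mem_H (hK ha)).mul (S.acts_nprod L) hw
    have hcons : ∀ u'' ∈ S.U, Z (S.n (Φ.simple j) 1 * (y * (a * S.nprod L) * u'')) := fun u'' hu'' =>
      ⟨_, hy', _, n_conj_mem hK hJ hj ha, j :: L, by simpa using ⟨hj, hL⟩, u'', hu'', by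
        rw [S.nprod_cons]; group⟩
    by_cases ht : t = 0
    · rw [ht, S.x_zero, mul_one]
      exact hcons u' hu'
    rcases Φ.pos_or_neg ((Φ.wprod L)⁻¹ (Φ.simple j)) with hp | hp
    · obtain ⟨u'', hu'', e⟩ := exists_x_mul_eq hw hA hp t
      rw [mul_assoc y, e]
      convert hcons _ (mul_mem hu'' hu') using 2
      group
    · have hA1 := S.acts_n_simple j (one_ne_zero (α := F))
      obtain ⟨l, hl, hconj⟩ := hA1.exists_conj_x (Φ.simple j)
      have h4 := S.x_neg_root_eq (Φ.simple j) (mul_ne_zero hl ht)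
      rw [← Φ.s_simple, ← hconj, S.n_eq _ (-(l * t)⁻¹)] at h4
      obtain ⟨u'', hu'', e⟩ := exists_x_mul_eq (mul_mem (Φ.s_mem_W j) hw) (hA1.mul hA hw)
        (r := Φ.simple j) (by rw [Φ.s_mul_inv_apply_simple hw, Φ.pos_neg_iff]; exact hp) (l * t)⁻¹
      refine ⟨_, mul_mem hy' (S.x_mem_U (Φ.pos_simple j) (l * t)⁻¹), _,
        mul_mem (mul_mem (hJ j hj _ (neg_ne_zero.2 (inv_ne_zero (mul_ne_zero hl ht))))
          (n_sq_mem hJ hj)) ha, L, hL, _, mul_mem hu'' hu', ?_⟩
      calc _ = S.n (Φ.simple j) 1 * y * (S.n (Φ.simple j) 1)⁻¹ *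
            (S.n (Φ.simple j) 1 * S.x (Φ.simple j) t * (S.n (Φ.simple j) 1)⁻¹) *
            (S.n (Φ.simple j) 1 * (a * S.nprod L)) * u' := by group
        _ = S.n (Φ.simple j) 1 * y * (S.n (Φ.simple j) 1)⁻¹ * S.x (Φ.simple j) (l * t)⁻¹ *
            (S.h (Φ.simple j) (-(l * t)⁻¹) * S.n (Φ.simple j) 1) * (S.x (Φ.simple j) (l * t)⁻¹ *
            (S.n (Φ.simple j) 1 * (a * S.nprod L))) * u' := by rw [h4]; simp only [mul_assoc]
        _ = _ := by rw [e]; simp only [mul_assoc]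
  have hle : S.UU {r | Φ.Pos r ∨ Φ.InSub J r} ≤
      S.UU {r | Φ.Pos r ∨ ∃ j ∈ J, r = Φ.neg (Φ.simple j)} := by
    rw [S.UU_le_iff]
    rintro r (hr | hr) t
    · exact S.x_mem_UU (Or.inl hr) t
    · have := S.x_mem_UU (Ψ := {r | Φ.InSub J r}) hr t
      rw [← S.UU_simple_eq] at this
      refine S.UU_mono ?_ this
      rintro _ ⟨j, hj, rfl | rfl⟩
      · exact Or.inl (Φ.pos_simple j)
      · exact Or.inr ⟨j, hj, rfl⟩
  have hZ : Z a := by
    refine S.UU_induction_left (p := Z)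
      ⟨1, one_mem _, 1, one_mem _, [], by simp, 1, one_mem _, by simp [S.nprod_nil]⟩ ?_ (hle hQ)
    rintro r (hr | ⟨j, hj, rfl⟩) t g - hg
    · exact hU _ (S.x_mem_U hr t) _ hg
    · by_cases ht : t = 0
      · rwa [ht, S.x_zero, one_mul]
      · rw [S.x_neg_root_eq _ ht, S.n_eq]
        simp only [mul_assoc]
        exact hU _ (S.x_mem_U (Φ.pos_simple j) _) _ (hH _ (hJ j hj _ (neg_ne_zero.2 (inv_ne_zero ht))) _
          (hN j hj _ (hU _ (S.x_mem_U (Φ.pos_simple j) _) _ hg)))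
  obtain ⟨u, hu, b, hb, L, hL, u', hu', e⟩ := hZ
  have hA : S.Acts (b * S.nprod L) (Φ.wprod L) := by
    simpa using (S.acts_of_mem_H (hK hb)).mul (S.acts_nprod L) (Φ.wprod_mem_W L)
  have h1 := hS.acts_eq_of_eq (S.H_le_N ha) (mul_mem (S.H_le_N (hK hb)) (S.nprod_mem_N L))
    (S.acts_of_mem_H ha) hA (one_mem _) (one_mem _) (S.U_le_B hu) (S.U_le_B hu')
    (by rw [one_mul, mul_one]; exact e)
  have h2 := mul_mem hb (nprod_mem hK hJ hL h1.symm)
  have h3 := hS.eq_one_of_mem_U_of_mem_H (g := a * (b * S.nprod L)⁻¹) (by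
    rw [e, mul_assoc u, mul_assoc u]
    exact mul_mem hu (S.H_conj_mem_UU (hK h2) hu')) (mul_mem ha (inv_mem (hK h2)))
  rwa [mul_inv_eq_one.1 h3]

theorem mem_of_mem_H_op [Finite ι] (hS : S.Nondeg) {a : G} (ha : a ∈ S.H)
    (hQ : a ∈ S.UU {r | Φ.Neg r ∨ Φ.InSub J r}) : a ∈ K := by
  refine mem_of_mem_H (S := S.op) (J := J) (by rwa [S.op_H]) (fun j hj c hc => ?_) hS.op
    (by rwa [S.op_H]) ?_
  · have h1 : ∀ c, S.n (Φ.neg (Φ.simple j)) c ∈ S.UU {r | Φ.Pos r ∨ Φ.InSub J r} := fun c =>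
      S.n_mem_UU (Or.inr (Φ.inSub_neg_iff.2 (Φ.inSub_simple_iff.2 hj)))
        (Or.inl (by rw [Φ.neg_neg]; exact Φ.pos_simple j)) c
    exact mem_of_mem_H hK hJ hS (S.h_mem_H _ hc) (mul_mem (h1 _) (h1 _))
  · rw [S.op_UU]
    simpa only [Set.mem_ofPred_eq, Φ.pos_neg_iff, Φ.inSub_neg_iff] using hQ

end

variable {k : Type*} [Field k] [Fintype F] [Finite ι]

/-- the character of the product of the fundamental tori given by a weight -/
def wtChar (ω : κ → Option (Fˣ →* kˣ)) : (κ → Fˣ) →* kˣ where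
  toFun c := ∏ i, chi (ω i) (c i)
  map_one' := by simp
  map_mul' c d := by simp [Finset.prod_mul_distrib]

omit [Fintype F] in
theorem wtChar_mulSingle (ω : κ → Option (Fˣ →* kˣ)) (i : κ) (t : Fˣ) :
    wtChar ω (Pi.mulSingle i t) = chi (ω i) t := by
  change ∏ j, chi (ω j) (Pi.mulSingle (M := fun _ => Fˣ) i t j) = _
  rw [Finset.prod_eq_single i, Pi.mulSingle_eq_same]
  · intro j _ hj
    rw [Pi.mulSingle_eq_of_ne hj, map_one]
  · simp

/-- existence of a vector of given weight -/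
theorem exists_isWt_of_ker [Finite G] (hS : S.Nondeg) (p : ℕ) [hp : Fact p.Prime]
    [CharP F p] [CharP k p] (τ : (κ → Fˣ) →* G)
    (hτ : ∀ i t, τ (Pi.mulSingle i t) = S.h (Φ.simple i) t) (hr : τ.range = S.H)
    (ω : κ → Option (Fˣ →* kˣ)) (hker : ∀ c, τ c = 1 → wtChar ω c = 1) :
    ∃ (Q : Subgroup G) (y : k[G ⧸ Q]), y ≠ 0 ∧ IsWt S (Representation.ofMulAction k G (G ⧸ Q)) ω y := by
  classical
  have := Fintype.ofFinite G
  have hq := card_cast_eq_zero F k p
  let J : Set κ := {i | ω i = some 1}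
  let Q := S.UU {r | Φ.Neg r ∨ Φ.InSub J r}
  let σ := Representation.ofMulAction k G (G ⧸ Q)
  have hτH : ∀ c, τ c ∈ S.H := fun c => hr ▸ ⟨c, rfl⟩
  let z : k[G ⧸ Q] := ∑ c, single ((τ c : G) : G ⧸ Q) (((wtChar ω c)⁻¹ : kˣ) : k)
  have hσz : ∀ g, σ g z = ∑ c, single ((g * τ c : G) : G ⧸ Q) (((wtChar ω c)⁻¹ : kˣ) : k) := by
    intro g
    simp only [z, σ, map_sum, Representation.ofMulAction_single]
    rfl
  have hzQ : ∀ b ∈ Q, σ b z = z := by
    intro b hb
    rw [hσz]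
    refine Finset.sum_congr rfl fun c _ => ?_
    congr 1
    refine QuotientGroup.eq.2 ?_
    rw [mul_inv_rev]
    exact S.H_inv_conj_mem_UU (hτH c) (inv_mem hb)
  have hzH : ∀ c, σ (τ c) z = (wtChar ω c : k) • z := by
    intro c
    rw [hσz, Finset.smul_sum]
    refine Fintype.sum_equiv (Equiv.mulLeft c) _ _ fun d => ?_
    rw [Equiv.coe_mulLeft, map_mul, map_mul, smul_single, smul_eq_mul, ← Units.val_mul, mul_inv,
      mul_inv_cancel_left]
  obtain ⟨wJ, hwJ, hJneg⟩ := Φ.exists_longest J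
  obtain ⟨w₀, hw₀, hneg, hpos⟩ := Φ.exists_w0
  have hd' : w₀ * wJ ∈ Φ.W := mul_mem hw₀ (Φ.WJ_le_W J hwJ)
  have hd := inv_mem hd'
  have hI : Φ.Inv (w₀ * wJ)⁻¹⁻¹ = {r | Φ.Pos r ∧ ¬ Φ.InSub J r} := by
    rw [inv_inv]
    ext r
    refine ⟨fun h => ⟨h.1, fun h' => Φ.not_neg_of_pos (hpos _ (hJneg r h.1 h')) h.2⟩,
      fun h => ⟨h.1, hneg _ (Φ.pos_apply_of_not_inSub hwJ h.1 h.2)⟩⟩
  obtain ⟨n, hn, ha⟩ := S.exists_acts hd
  have hx : IsB S σ (σ n⁻¹ z) := by
    refine ⟨fun u hu => ?_, fun a ha' => ?_⟩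
    · have h1 : n * u * n⁻¹ ∈ Q := by
        refine ha.conj_mem_UU (fun r hr => ?_) hu
        by_contra hc
        simp only [Set.mem_ofPred_eq, not_or, ← Φ.pos_iff_not_neg] at hc
        have h2 : (w₀ * wJ)⁻¹ r ∈ Φ.Inv (w₀ * wJ)⁻¹⁻¹ := hI ▸ hc
        have h3 := h2.2
        rw [Equiv.Perm.inv_def (w₀ * wJ)⁻¹, Equiv.symm_apply_apply] at h3
        exact Φ.not_neg_of_pos hr h3
      conv_rhs => rw [← hzQ _ h1]
      rw [← rho_mul, ← rho_mul]
      congr 2; group
    · obtain ⟨c, hc⟩ : n * a * n⁻¹ ∈ τ.range := hr ▸ S.N_conj_mem_H hn ha'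
      refine ⟨wtChar ω c, ?_⟩
      rw [← map_smul, ← hzH, hc, ← rho_mul, ← rho_mul]
      congr 2; group
  have hy := hx.Tw hS hd n hn ha
  set y := Tw S σ (w₀ * wJ)⁻¹ n (σ n⁻¹ z) with hy0
  have hy1 : y = ∑ u ∈ Finset.univ.filter (· ∈ S.UJ J), σ u z := by
    rw [hy0, Tw, LinearMap.sum_apply, hI]
    refine Finset.sum_congr rfl fun u _ => ?_
    rw [← rho_mul, mul_inv_cancel_right]
  have hP : ∀ b ∈ S.P J, ∀ c : k, σ b z = c • z → σ b y = c • y := by
    intro b hb c hc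
    rw [hy1, map_sum, Finset.smul_sum]
    refine Finset.sum_nbij' (fun u => b * u * b⁻¹) (fun u => b⁻¹ * u * b⁻¹⁻¹) ?_ ?_ ?_ ?_ ?_
    · intro u hu
      simp only [Finset.mem_filter, Finset.mem_univ, true_and] at hu ⊢
      exact S.P_conj_mem_UJ hb hu
    · intro u hu
      simp only [Finset.mem_filter, Finset.mem_univ, true_and] at hu ⊢
      exact S.P_conj_mem_UJ (inv_mem hb) hu
    · intro u _; group
    · intro u _; group
    · intro u _
      rw [← map_smul, ← hc, ← rho_mul, ← rho_mul, inv_mul_cancel_right]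
  have htor : ∀ i (t : Fˣ), σ (S.h (Φ.simple i) t) y = (chi (ω i) t : k) • y := by
    intro i t
    refine hP _ (S.B_le_P J (S.H_le_B (S.h_mem_H _ t.ne_zero))) _ ?_
    rw [← hτ, hzH, wtChar_mulSingle]
  refine ⟨Q, y, ?_, hy.1, htor, fun i => ?_⟩
  · have h1 : ∀ c, τ c ∈ Q → wtChar ω c = 1 := by
      intro c hc
      obtain ⟨c', hc', e⟩ := mem_of_mem_H_op (J := J) (K := (wtChar ω).ker.map τ)
        (by rintro _ ⟨c, -, rfl⟩; exact hτH c) (fun j hj c hc => ⟨Pi.mulSingle j (Units.mk0 c hc), by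
          change wtChar ω _ = 1
          rw [wtChar_mulSingle, show ω j = some 1 from hj]; rfl, hτ j _⟩) hS (hτH c) hc
      have h2 := hker (c * c'⁻¹) (by rw [map_mul, map_inv, e, mul_inv_cancel])
      rwa [map_mul, map_inv, show wtChar ω c' = 1 from hc', inv_one, mul_one] at h2
    have h2 : ∀ u ∈ S.UJ J, ∀ c, u * τ c ∈ Q → u = 1 := by
      intro u hu c hc
      refine hS.op.eq_one_of_mem_P (J := J) ?_ ?_
      · rw [S.op_UU]
        simpa only [Set.mem_ofPred_eq, Φ.neg_neg_iff, Φ.inSub_neg_iff, StSys.UJ] using hu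
      · rw [StSys.P_eq_H_sup_UU, S.op_H, S.op_UU, ← mul_inv_cancel_right u (τ c)]
        refine mul_mem (Subgroup.mem_sup_right ?_) (Subgroup.mem_sup_left (inv_mem (hτH c)))
        simpa only [Set.mem_ofPred_eq, Φ.pos_neg_iff, Φ.inSub_neg_iff] using hc
    have h3 : y.coeff ((1 : G) : G ⧸ Q) = Nat.card (Q.comap τ) := by
      have h4 : ∀ g : G, (g : G ⧸ Q) = ((1 : G) : G ⧸ Q) ↔ g ∈ Q := fun g => by
        rw [QuotientGroup.eq, mul_one, inv_mem_iff]
      rw [hy1]
      simp only [hσz, MonoidAlgebra.coeff_sum, Finsupp.finsetSum_apply, MonoidAlgebra.coeff_single,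
        Finsupp.single_apply, h4]
      rw [Finset.sum_eq_single 1]
      · rw [Nat.card_eq_fintype_card, Fintype.card_subtype, Finset.card_filter, Nat.cast_sum]
        refine Finset.sum_congr rfl fun c _ => ?_
        rw [one_mul, Subgroup.mem_comap]
        split_ifs with h
        · simp [h1 c h]
        · simp
      · intro u hu hu1
        exact Finset.sum_eq_zero fun c _ => if_neg fun h => hu1 (h2 u (Finset.mem_filter.1 hu).2 c h)
      · intro h
        exact absurd (Finset.mem_filter.2 ⟨Finset.mem_univ _, one_mem _⟩) h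
    intro h0
    rw [h0, MonoidAlgebra.coeff_zero, Finsupp.zero_apply, eq_comm, CharP.cast_eq_zero_iff k p] at h3
    have h4 := h3.trans (Subgroup.card_subgroup_dvd_card _)
    rw [Nat.card_fun] at h4
    exact ClSys.not_dvd_card_units p (hp.out.dvd_of_dvd_pow h4)
  · by_cases hi : i ∈ J
    · have hi' := Φ.inSub_simple_iff.2 hi
      rw [T_apply, Finset.sum_congr rfl (g := fun _ => y), Finset.sum_const, Finset.card_univ,
        ← Nat.cast_smul_eq_nsmul k, hq, show ω i = some 1 from hi]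
      · rfl
      · intro t _
        have := hP _ (mul_mem (S.x_mem_P hi' t) (S.NJ_le_P J (S.n_simple_mem_NJ hi one_ne_zero))) 1
          (by rw [one_smul]; exact hzQ _ (mul_mem (S.x_mem_UU (Or.inr hi') t)
            (S.n_mem_UU (Or.inr hi') (Or.inl (Φ.neg_neg_simple i)) 1)))
        rwa [one_smul] at this
    · have hneg' : Φ.Neg ((w₀ * wJ)⁻¹⁻¹ (Φ.simple i)) :=
        (show Φ.simple i ∈ Φ.Inv (w₀ * wJ)⁻¹⁻¹ from
          hI ▸ ⟨Φ.pos_simple i, fun h => hi (Φ.inSub_simple_iff.1 h)⟩).2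
      have h1 := htor i
      have h2 := hx.Tw hS (mul_mem (Φ.s_mem_W i) hd) _ (mul_mem (inv_mem (S.n_one_mem_N _)) hn)
        (acts_inv_mul (i := i) hd ha)
      rw [hy0, T_mul_Tw' hS hd hneg', Module.End.mul_apply] at h1 ⊢
      rw [T_T hq h2 i _ h1]
      cases hω : ω i with
      | none => rw [if_pos (show chi (none : Option (Fˣ →* kˣ)) = 1 from rfl)]; rfl
      | some ψ =>
        rw [if_neg]
        · rfl
        · intro h
          exact hi (hω.trans (congrArg some h))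

omit [Finite ι] in
/-- a weight vector is sent to a weight vector -/
theorem IsWt.of_annihilator {V V' : Type*} [AddCommGroup V] [Module k V] [AddCommGroup V']
    [Module k V'] {ρ : Representation k G V} {ρ' : Representation k G V'}
    {ω : κ → Option (Fˣ →* kˣ)} {y : V} {v : V'} (hy : IsWt S ρ ω y)
    (h : ∀ a : k[G], ρ.asAlgebraHom a y = 0 → ρ'.asAlgebraHom a v = 0) : IsWt S ρ' ω v := by
  refine ⟨fun u hu => ?_, fun i t => ?_, fun i => ?_⟩
  · have := h (single u 1 - 1) (by simp [hy.fix u hu])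
    rw [map_sub, LinearMap.sub_apply, sub_eq_zero] at this
    simpa using this
  · have := h (single (S.h (Φ.simple i) t) 1 - (chi (ω i) t : k) • 1) (by simp [hy.tor])
    rw [map_sub, LinearMap.sub_apply, sub_eq_zero, map_smul] at this
    simpa using this
  · have := h (∑ t : F, single (S.x (Φ.simple i) t * S.n (Φ.simple i) 1) 1 - cc (ω i) • 1) (by
      simp only [map_sub, map_sum, Representation.asAlgebraHom_single_one, map_smul, map_one,
        LinearMap.sub_apply, LinearMap.smul_apply, Module.End.one_apply, sub_eq_zero]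
      exact hy.hecke i)
    simpa only [map_sub, map_sum, Representation.asAlgebraHom_single_one, map_smul, map_one,
      LinearMap.sub_apply, LinearMap.smul_apply, Module.End.one_apply, sub_eq_zero, T] using this

/-- the simple modules correspond to the weights whose character is trivial on the kernel of `τ` -/
theorem card_simple_eq [Finite G] [IsAlgClosed k] (hS : S.Nondeg) (htop : S.grp = ⊤)
    (h3 : Stein.R3 S) (p : ℕ) [Fact p.Prime] [CharP F p] [CharP k p] (τ : (κ → Fˣ) →* G)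
    (hτ : ∀ i t, τ (Pi.mulSingle i t) = S.h (Φ.simple i) t) (hr : τ.range = S.H) (W : Wedd k k[G]) :
    W.n = Nat.card {ω : κ → Option (Fˣ →* kˣ) // ∀ c, τ c = 1 → wtChar ω c = 1} := by
  choose ω m hm0 hm using fun i => (have := W.nontrivial i; exists_isWt (W.rep i) hS h3 p)
  have hker : ∀ i c, τ c = 1 → wtChar (ω i) c = 1 := by
    intro i c hc
    have h1 : ∀ c, W.rep i (τ c) (m i) = (wtChar (ω i) c : k) • m i := by
      intro c
      induction c using Pi.mulSingle_induction with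
      | one => simp
      | mul c d hc hd => rw [map_mul, rho_mul, hd, map_smul, hc, map_mul, smul_smul, mul_comm]; rfl
      | mulSingle j t => rw [hτ, wtChar_mulSingle, (hm i).tor]
    have h2 := h1 c
    rw [hc, map_one] at h2
    refine Units.ext (smul_left_injective k (hm0 i) ?_)
    simpa using h2.symm
  rw [← Nat.card_eq_of_bijective (fun i => (⟨ω i, hker i⟩ : {ω : κ → Option (Fˣ →* kˣ) //
    ∀ c, τ c = 1 → wtChar ω c = 1})) ⟨fun i j e => ?_, fun ω' => ?_⟩, Nat.card_fin]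
  · have e' : ω i = ω j := congrArg Subtype.val e
    exact W.eq_of_annihilator (annihilator_le hS htop h3 p (W.irr_rep i) (W.irr_rep j) (hm0 i) (hm0 j)
      (hm i) (e' ▸ hm j))
  · obtain ⟨Q, y, hy0, hy⟩ := exists_isWt_of_ker hS p τ hτ hr ω'.1 ω'.2
    obtain ⟨i, v, hv0, hv⟩ := W.exists_vector _ hy0
    exact ⟨i, Subtype.ext (weight_unique hS htop h3 p (W.irr_rep i) (hm0 i) hv0 (hm i)
      (hy.of_annihilator hv))⟩

/-- **Steinberg**: in the simply connected case there are `q ^ l` classes of `p`-regular elements -/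
theorem card_regular_classes [Finite G] (hS : S.Nondeg) (htop : S.grp = ⊤) (h3 : Stein.R3 S)
    (hsc : ClSys.SC S) (p : ℕ) [hp : Fact p.Prime] [CharP F p] :
    Nat.card {c : ConjClasses G // ∃ g : G, ConjClasses.mk g = c ∧ (orderOf g).Coprime p} =
      Fintype.card F ^ Fintype.card κ := by
  let k := AlgebraicClosure F
  obtain ⟨W⟩ := nonempty_wedd k k[G]
  have hL := Finset.nodup_toList (Finset.univ : Finset κ)
  rw [W.card_regular_classes p, card_simple_eq hS htop h3 p (h3.hHom Finset.univ.toList)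
    (fun i t => Stein.hprod_mulSingle S hL (by simp) t) (h3.range_hHom hL (by simp)) W,
    Nat.card_congr (Equiv.subtypeUnivEquiv fun ω c hc => by
      rw [show c = 1 from funext fun i => hsc _ c hL hc i (by simp), map_one])]
  have : NeZero ((Monoid.exponent Fˣ : ℕ) : k) := ⟨fun h => ClSys.not_dvd_card_units (F := F) p
    (((CharP.cast_eq_zero_iff k p _).1 h).trans Group.exponent_dvd_nat_card)⟩
  have h1 := CommGroup.card_monoidHom_of_hasEnoughRootsOfUnity Fˣ k
  have : Finite (Fˣ →* kˣ) := Nat.finite_of_card_ne_zero (by rw [h1]; exact Nat.card_pos.ne')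
  rw [Nat.card_fun, Finite.card_option, h1, Nat.card_units, Nat.card_eq_fintype_card,
    Nat.card_eq_fintype_card, Nat.sub_add_cancel Fintype.card_pos]

end CfsgLib.CR
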